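import Cfsg.Agent.Lib.Helper99.KS.Basic

/-!
# piece P5 of helper33's symmetric amalgam farm: shifting a critical walk to the left (helper99)
-/

set_option autoImplicit false

namespace Cfsg.Agent.Lib.Helper99.KS

open Subgroup MulAction Cfsg.Agent.Lib.Helper33.KS
open Cfsg.Agent.Lib.Helper22 (conjS mem_conjS conjS_mem conjS_mul conjS_one)

variable {G : Type*} [Group G] {V : Type*} [MulAction G V] {adj : V → V → Prop}
  {Q Z : V → Subgroup G}

theorem p5 (hC : Cub adj Q Z) {b : ℕ} (hb : MinB adj Z b) (h2 : P2 adj Q Z b)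
    (h3 : P3 adj Z b) (h4 : P4 adj Z) : P5 adj Z b := by
  intro f l C hcrit hCA hCB
  obtain ⟨hpath, hnc⟩ := hcrit
  have hb2 : (2 : ℤ) ≤ b := by exact_mod_cast hb.two_le
  set g := Function.update f (l - 1) C with hg
  have g0 : g (l - 1) = C := by simp [hg]
  have gi : ∀ i, l ≤ i → g i = f i := by
    intro i hi
    rw [hg, Function.update_of_ne (by omega)]
  have hgpath : IsPath adj g (l - 1) (l - 1 + b) := by
    intro i hi1 hi2
    by_cases hi : i = l - 1
    · subst hi
      rw [g0, gi _ (by omega), show l - 1 + 1 = l by ring]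
      exact hCA
    · rw [gi _ (by omega), gi _ (by omega)]
      exact hpath i (by omega) (by omega)
  refine ⟨hgpath, ?_⟩
  rw [g0, gi _ (by omega)]
  intro hcm
  -- notation
  have hAB : adj (f l) (f (l + 1)) := hpath l le_rfl (by omega)
  have hB'A' : adj (f (l - 1 + b)) (f (l + b)) := by
    have := hpath (l - 1 + b) (by omega) (by omega)
    rwa [show l - 1 + b + 1 = l + b by ring] at this
  have hAC : adj (f l) C := hC.symm hCA
  -- Z C ≤ Q B'
  have hZC1 : Z C ≤ Q (f (l - 1 + b - 1)) := by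
    have hp : IsPath adj g (l - 1) (l - 1 + b - 1) := by
      intro i hi1 hi2
      exact hgpath i hi1 (by omega)
    have := (h2 g (l - 1) (l - 1 + b - 1) hp (by omega) (by omega)).2
    rwa [g0, gi _ (by omega)] at this
  have hadj2 : adj (f (l - 1 + b - 1)) (f (l - 1 + b)) := by
    have := hpath (l - 1 + b - 1) (by omega) (by omega)
    rwa [show l - 1 + b - 1 + 1 = l - 1 + b by ring] at this
  have hZC2 : Z C ≤ Q (f (l - 1 + b)) := by
    intro c hc
    apply hC.CZ _ c (hC.QB hadj2 (hZC1 hc))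
    intro a ha
    exact hcm c hc a ha
  -- the non commuting pair
  have hex : ∃ a ∈ Z (f l), ∃ x ∈ Z (f (l + b)), a * x ≠ x * a := by
    by_contra hcon
    push Not at hcon
    exact hnc hcon
  obtain ⟨a, ha, x, hx, hax⟩ := hex
  obtain ⟨hW1, hW2⟩ := h3 f l hpath a ha x hx hax
  set r := a * x * a * x with hr
  have hrZ : r ∈ Z (f l) := (h4 _ _ r hAB hW1).1
  have hxinv : x⁻¹ = x := inv_eq_self hC hx
  have hxx : x * x = 1 := hC.Ze _ x hx
  rw [show l + b - 1 = l - 1 + b by ring] at hW2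
  -- conjugates of Z C by x
  have hconj : ∀ c ∈ Z C, x * c * x⁻¹ = c ∨ x * c * x⁻¹ = r * c := by
    intro c hc
    have hcT : c ∈ St G (f (l + b)) ⊓ St G (f (l - 1 + b)) :=
      ⟨hC.QB hB'A' (hZC2 hc), hC.QA _ (hZC2 hc)⟩
    rcases hW2.2.1 x hx c hcT with h | h
    · left
      rw [hxinv]
      have h' : x * c * x * c⁻¹ = 1 := by rw [← h]; group
      calc x * c * x = (x * c * x * c⁻¹) * c := by group
        _ = c := by rw [h', one_mul]
    · right
      rw [hxinv]
      have h' : x * c * x * c⁻¹ = r := by rw [← h]; group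
      calc x * c * x = (x * c * x * c⁻¹) * c := by group
        _ = r * c := by rw [h']
  -- x ∈ T_AB, x ∉ Q A
  have hxQB : x ∈ Q (f (l + 1)) := by
    have hp : IsPath adj f (l + 1) (l + b) := by
      intro i hi1 hi2
      exact hpath i (by omega) hi2
    exact (h2 f (l + 1) (l + b) hp (by omega) (by omega)).1 hx
  have hxA : x ∈ St G (f l) := hC.QB (hC.symm hAB) hxQB
  have hxB : x ∈ St G (f (l + 1)) := hC.QA _ hxQB
  have hxQA : x ∉ Q (f l) := fun h => hax (hC.QZ _ x h a ha).symm
  have hxC : x ∉ St G C := fun h => hxQA (hC.TT hAB hAC (Ne.symm hCB) ⟨⟨hxA, hxB⟩, h⟩)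
  -- Y
  set Y : Subgroup G := Z C ⊔ Z (f l) with hY
  have hxY1 : conjS x Y ≤ Y := by
    rw [hY]
    show Subgroup.map _ _ ≤ _
    rw [Subgroup.map_sup]
    apply sup_le
    · rintro _ ⟨c, hc, rfl⟩
      show x * c * x⁻¹ ∈ _
      rcases hconj c hc with h | h
      · rw [h]; exact (le_sup_left : Z C ≤ _) hc
      · rw [h]
        exact mul_mem ((le_sup_right : Z (f l) ≤ Z C ⊔ Z (f l)) hrZ)
          ((le_sup_left : Z C ≤ Z C ⊔ Z (f l)) hc)
    · have : conjS x (Z (f l)) = Z (f l) := Z_stab hC hxA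
      exact this.le.trans le_sup_right
  have hxN : x ∈ normalizer (Y : Set G) := by
    apply mem_normalizer_of_conjS_eq
    apply conjS_eq_of_le hxY1
    rw [hxinv]; exact hxY1
  have hTN : St G (f l) ⊓ St G C ≤ normalizer (Y : Set G) := by
    intro t ht
    apply mem_normalizer_of_conjS_eq
    show Subgroup.map _ _ = _
    rw [hY, Subgroup.map_sup]
    have e1 : conjS t (Z C) = Z C := Z_stab hC ht.2
    have e2 : conjS t (Z (f l)) = Z (f l) := Z_stab hC ht.1
    exact congrArg₂ _ e1 e2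
  have hStA : St G (f l) ≤ normalizer (Y : Set G) := hC.gen hAC _ x hTN hxA hxC hxN
  obtain ⟨k, hk1, hk2⟩ := hC.trans hAC hCA
  have hkN : k ∈ normalizer (Y : Set G) := by
    apply mem_normalizer_of_conjS_eq
    show Subgroup.map _ _ = _
    rw [hY, Subgroup.map_sup]
    have e1 : conjS k (Z C) = Z (f l) := by rw [← hC.Z_smul, hk2]
    have e2 : conjS k (Z (f l)) = Z C := by rw [← hC.Z_smul, hk1]
    have : conjS k (Z C) ⊔ conjS k (Z (f l)) = Z C ⊔ Z (f l) := by rw [e1, e2, sup_comm]
    exact this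
  have hStC : St G C ≤ normalizer (Y : Set G) := by
    intro y hy
    rw [← hk1, mem_St_smul] at hy
    have h1 := hStA hy
    have : y = k * (k⁻¹ * y * k) * k⁻¹ := by group
    rw [this]
    exact mul_mem (mul_mem hkN h1) (inv_mem hkN)
  have hcomm : ∀ c ∈ Z C, ∀ a' ∈ Z (f l), c * a' = a' * c := by
    have hp : IsPath adj g (l - 1) (l - 1 + (1 : ℕ)) := by
      intro i hi1 hi2
      exact hgpath i hi1 (by push_cast at hi2; omega)
    have := hb.lt 1 (by have := hb.two_le; omega) g (l - 1) hp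
    rw [g0, gi _ (by push_cast; omega)] at this
    rwa [show l - 1 + ((1 : ℕ) : ℤ) = l by push_cast; ring] at this
  have hY2 : IsPGroup 2 Y := isPGroup_two_of_sq (sq_one_of_sup hcomm (hC.Ze _) (hC.Ze _))
  have hbot := hC.core hAC Y hY2 hStA hStC
  apply hC.Zne (f l)
  rw [eq_bot_iff, ← hbot]
  exact le_sup_right

end Cfsg.Agent.Lib.Helper99.KS
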