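import Cfsg.Agent.Lib.Helper99.KS.Basic

/-!
# piece P8 of helper33's symmetric amalgam farm: `b < 3` (helper99)
-/

set_option autoImplicit false

namespace Cfsg.Agent.Lib.Helper99.KS

open Subgroup MulAction Cfsg.Agent.Lib.Helper33.KS
open Cfsg.Agent.Lib.Helper22 (conjS mem_conjS conjS_mem conjS_mul conjS_one)

variable {G : Type*} [Group G] {V : Type*} [MulAction G V] {adj : V → V → Prop}
  {Q Z : V → Subgroup G}

theorem p8 (hC : Cub adj Q Z) {b : ℕ} (hb : MinB adj Z b) (h2 : P2 adj Q Z b)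
    (h3 : P3 adj Z b) (h4 : P4 adj Z) (h5' : P5' adj Z b) (h6 : P6 adj Z) (h7 : P7 adj Z) :
    b < 3 := by
  by_contra hb3
  have hb3' : 3 ≤ b := by omega
  have hbz : (3 : ℤ) ≤ b := by exact_mod_cast hb3'
  have hex : ∃ (f : ℤ → V) (l : ℤ), IsPath adj f l (l + b) ∧ ¬ Cmt Z (f l) (f (l + b)) := by
    by_contra hcon
    apply hb.not
    intro f l hp
    by_contra hc
    exact hcon ⟨f, l, hp, hc⟩
  obtain ⟨f, l, hpath, hnc⟩ := hex
  have hex2 : ∃ a ∈ Z (f l), ∃ x ∈ Z (f (l + b)), a * x ≠ x * a := by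
    by_contra hcon
    push Not at hcon
    exact hnc hcon
  obtain ⟨a, ha, x, hx, hax⟩ := hex2
  obtain ⟨hW1, hW2⟩ := h3 f l hpath a ha x hx hax
  set r := a * x * a * x with hr
  have h01 : adj (f l) (f (l + 1)) := hpath l le_rfl (by omega)
  have h12 : adj (f (l + 1)) (f (l + 2)) := by
    have := hpath (l + 1) (by omega) (by omega)
    rwa [show l + 1 + 1 = l + 2 by ring] at this
  have h23 : adj (f (l + 2)) (f (l + 3)) := by
    have := hpath (l + 2) (by omega) (by omega)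
    rwa [show l + 2 + 1 = l + 3 by ring] at this
  have hbb : adj (f (l + b - 1)) (f (l + b)) := by
    have := hpath (l + b - 1) (by omega) (by omega)
    rwa [show l + b - 1 + 1 = l + b by ring] at this
  -- r is central in St f1
  have hrc : ∀ y ∈ St G (f (l + 1)), y * r = r * y := by
    obtain ⟨w, hw, hwc⟩ := h6 _ _ h01
    have := (h4 _ _ r h01 hW1).2.2.2.1 w hw
    rwa [this] at hwc
  -- IsW Z f2 f1 r
  have hW3 : IsW Z (f (l + 2)) (f (l + 1)) r := by
    obtain ⟨g, hg, hg2⟩ := hC.trN (hC.symm h01) h12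
    have := (h4 _ _ r h01 hW1).2.2.2.2 g
    rw [hg2, show g • f (l + 1) = f (l + 1) from hg] at this
    have e : g * r * g⁻¹ = r := by rw [hrc g hg]; group
    rwa [e] at this
  -- f1 ≠ f3
  have h13 : f (l + 1) ≠ f (l + 3) := by
    intro h13
    set f' : ℤ → V := fun i => if i ≤ l + 1 then f i else f (i + 2) with hf'
    have hp' : IsPath adj f' l (l + ((b - 2 : ℕ) : ℤ)) := by
      have hcast : ((b - 2 : ℕ) : ℤ) = (b : ℤ) - 2 := by
        rw [Nat.cast_sub (by omega)]; rfl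
      rw [hcast]
      intro i hi1 hi2
      simp only [hf']
      by_cases h1 : i + 1 ≤ l + 1
      · rw [if_pos (by omega), if_pos h1]
        exact hpath i hi1 (by omega)
      · by_cases h2' : i ≤ l + 1
        · have hi : i = l + 1 := by omega
          subst hi
          rw [if_pos le_rfl, if_neg (by omega), h13]
          have := hpath (l + 3) (by omega) (by omega)
          rwa [show l + 3 + 1 = l + 1 + 1 + 2 by ring] at this
        · rw [if_neg h2', if_neg h1]
          have := hpath (i + 2) (by omega) (by omega)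
          rwa [show i + 2 + 1 = i + 1 + 2 by ring] at this
    have hcm := hb.lt (b - 2) (by omega) f' l hp'
    have hcast : ((b - 2 : ℕ) : ℤ) = (b : ℤ) - 2 := by
      rw [Nat.cast_sub (by omega)]; rfl
    rw [hcast] at hcm
    have e0 : f' l = f l := by simp [hf']
    have e1 : f' (l + ((b : ℤ) - 2)) = f (l + b) := by
      simp only [hf']
      by_cases h : l + ((b : ℤ) - 2) ≤ l + 1
      · rw [if_pos h]
        have hb3z : (b : ℤ) = 3 := by omega
        rw [hb3z, show l + ((3 : ℤ) - 2) = l + 1 by ring]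
        exact h13
      · rw [if_neg h]
        congr 1
        ring
    rw [e0, e1] at hcm
    exact hnc hcm
  -- shift right twice
  obtain ⟨C₁, hC1, hC1'⟩ := hC.ex (hC.symm hbb)
  have hcr1 := h5' f l C₁ ⟨hpath, hnc⟩ hC1 hC1'
  set f₁ := Function.update f (l + b + 1) C₁ with hf₁
  have f1a : f₁ (l + b + 1) = C₁ := by simp [hf₁]
  have f1b : ∀ i, i ≤ l + b → f₁ i = f i := by
    intro i hi
    rw [hf₁, Function.update_of_ne (by omega)]
  obtain ⟨C₂, hC2, hC2'⟩ := hC.ex (hC.symm hC1)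
  have hcr2 := h5' f₁ (l + 1) C₂ hcr1
    (by rw [show l + 1 + (b : ℤ) = l + b + 1 by ring, f1a]; exact hC2)
    (by rw [show l + 1 + (b : ℤ) - 1 = l + b by ring, f1b _ le_rfl]; exact hC2')
  set f₂ := Function.update f₁ (l + 1 + b + 1) C₂ with hf₂
  have f2a : f₂ (l + b + 2) = C₂ := by
    rw [hf₂, show l + 1 + (b : ℤ) + 1 = l + b + 2 by ring]; simp
  have f2b : ∀ i, i ≤ l + b → f₂ i = f i := by
    intro i hi
    rw [hf₂, Function.update_of_ne (by omega), f1b i hi]
  obtain ⟨hpath2, hnc2⟩ := hcr2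
  rw [show l + 1 + 1 + (b : ℤ) = l + b + 2 by ring, show l + 1 + 1 = l + 2 by ring] at hpath2 hnc2
  rw [f2a, f2b _ (by omega)] at hnc2
  have hex3 : ∃ a₂ ∈ Z (f (l + 2)), ∃ x' ∈ Z C₂, a₂ * x' ≠ x' * a₂ := by
    by_contra hcon
    push Not at hcon
    exact hnc2 hcon
  obtain ⟨a₂, ha₂, x', hx', hax'⟩ := hex3
  have hx'Q3 : x' ∈ Q (f (l + 3)) := by
    have hp : IsPath adj f₂ (l + 3) (l + b + 2) := by
      intro i hi1 hi2
      exact hpath2 i (by omega) hi2
    have := (h2 f₂ (l + 3) (l + b + 2) hp (by omega) (by omega)).1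
    rw [f2a, f2b _ (by omega)] at this
    exact this hx'
  have hx'3 : x' ∈ St G (f (l + 3)) := hC.QA _ hx'Q3
  have hx'2 : x' ∈ St G (f (l + 2)) := hC.QB (hC.symm h23) hx'Q3
  have hx'Q2 : x' ∉ Q (f (l + 2)) := fun h => hax' (hC.QZ _ x' h a₂ ha₂).symm
  have hrZb : r ∈ Z (f (l + b)) := (h4 _ _ r (hC.symm hbb) hW2).1
  have hrx' : x' * r = r * x' := by
    have hp : IsPath adj f₂ (l + b) (l + b + ((2 : ℕ) : ℤ)) := by
      intro i hi1 hi2
      exact hpath2 i (by omega) (by push_cast at hi2; omega)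
    have := hb.lt 2 (by omega) f₂ (l + b) hp
    rw [show l + (b : ℤ) + ((2 : ℕ) : ℤ) = l + b + 2 by push_cast; ring, f2a,
      f2b _ le_rfl] at this
    exact (this r hrZb x' hx').symm
  have hx'1 : x' ∈ St G (f (l + 1)) := h7 _ _ r x' (hC.symm h12) hW3 hx'2 hrx'
  exact hx'Q2 (hC.TT (hC.symm h12) h23 h13 ⟨⟨hx'2, hx'1⟩, hx'3⟩)

end Cfsg.Agent.Lib.Helper99.KS
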