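import Cfsg.Agent.Lib.Helper33.KS.Defs

/-!
# helper lemmas for the pieces P5, P8 of helper33's symmetric amalgam farm (helper99)
-/

set_option autoImplicit false

namespace Cfsg.Agent.Lib.Helper99.KS

open Subgroup MulAction Cfsg.Agent.Lib.Helper33.KS
open Cfsg.Agent.Lib.Helper22 (conjS mem_conjS conjS_mem conjS_mul conjS_one)

variable {G : Type*} [Group G] {V : Type*} [MulAction G V] {adj : V → V → Prop}
  {Q Z : V → Subgroup G}

theorem Z_stab (hC : Cub adj Q Z) {A : V} {t : G} (ht : t ∈ St G A) : conjS t (Z A) = Z A := by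
  have h := hC.Z_smul t A
  rw [show t • A = A from ht] at h
  exact h.symm

theorem Q_stab (hC : Cub adj Q Z) {A : V} {t : G} (ht : t ∈ St G A) : conjS t (Q A) = Q A := by
  have h := hC.Q_smul t A
  rw [show t • A = A from ht] at h
  exact h.symm

theorem conj_mem_Z (hC : Cub adj Q Z) {A : V} {t a : G} (ht : t ∈ St G A) (ha : a ∈ Z A) :
    t * a * t⁻¹ ∈ Z A := by
  have := conjS_mem (g := t) ha
  rwa [Z_stab hC ht] at this

theorem inv_eq_self (hC : Cub adj Q Z) {A : V} {a : G} (ha : a ∈ Z A) : a⁻¹ = a :=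
  inv_eq_of_mul_eq_one_left (hC.Ze A a ha)

theorem mem_normalizer_of_conjS_eq {x : G} {Y : Subgroup G} (h : conjS x Y = Y) :
    x ∈ normalizer (Y : Set G) := by
  rw [Subgroup.mem_normalizer_iff]
  intro y
  constructor
  · intro hy
    have := conjS_mem (g := x) hy
    rwa [h] at this
  · intro hy
    have h2 : x * y * x⁻¹ ∈ conjS x Y := by rw [h]; exact hy
    rw [mem_conjS] at h2
    simpa [mul_assoc] using h2

theorem conjS_eq_of_le {x : G} {Y : Subgroup G} (h : conjS x Y ≤ Y) (h' : conjS x⁻¹ Y ≤ Y) :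
    conjS x Y = Y := by
  apply le_antisymm h
  intro y hy
  rw [mem_conjS]
  have := h' (conjS_mem (g := x⁻¹) hy)
  simpa using this

theorem mem_St_smul {g y : G} {A : V} : y ∈ St G (g • A) ↔ g⁻¹ * y * g ∈ St G A := by
  simp only [MulAction.mem_stabilizer_iff, mul_smul]
  constructor
  · intro h
    rw [h, inv_smul_smul]
  · intro h
    have := congrArg (fun v => g • v) h
    simpa using this

theorem sq_one_of_sup {H K : Subgroup G} (hHK : ∀ a ∈ H, ∀ b ∈ K, a * b = b * a)
    (eH : ∀ a ∈ H, a * a = 1) (eK : ∀ a ∈ K, a * a = 1) : ∀ y ∈ H ⊔ K, y * y = 1 := by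
  let S : Subgroup G :=
    { carrier := {y | ∃ a ∈ H, ∃ b ∈ K, y = a * b}
      one_mem' := ⟨1, one_mem _, 1, one_mem _, by simp⟩
      mul_mem' := by
        rintro _ _ ⟨a, ha, b, hb, rfl⟩ ⟨a', ha', b', hb', rfl⟩
        refine ⟨a * a', mul_mem ha ha', b * b', mul_mem hb hb', ?_⟩
        calc a * b * (a' * b') = a * (b * a') * b' := by group
          _ = a * (a' * b) * b' := by rw [hHK a' ha' b hb]
          _ = _ := by group
      inv_mem' := by
        rintro _ ⟨a, ha, b, hb, rfl⟩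
        refine ⟨a⁻¹, inv_mem ha, b⁻¹, inv_mem hb, ?_⟩
        rw [mul_inv_rev, hHK _ (inv_mem ha) _ (inv_mem hb)] }
  have hle : H ⊔ K ≤ S := by
    apply sup_le
    · intro a ha; exact ⟨a, ha, 1, one_mem _, by simp⟩
    · intro b hb; exact ⟨1, one_mem _, b, hb, by simp⟩
  intro y hy
  obtain ⟨a, ha, b, hb, rfl⟩ := hle hy
  calc a * b * (a * b) = a * (b * a) * b := by group
    _ = a * (a * b) * b := by rw [hHK a ha b hb]
    _ = (a * a) * (b * b) := by group
    _ = 1 := by rw [eH a ha, eK b hb, one_mul]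

theorem isPGroup_two_of_sq {Y : Subgroup G} (h : ∀ y ∈ Y, y * y = 1) : IsPGroup 2 Y := by
  intro g
  refine ⟨1, ?_⟩
  apply Subtype.ext
  have := h g.1 g.2
  simpa [pow_two] using this

end Cfsg.Agent.Lib.Helper99.KS
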